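import Cfsg.Prelude.Def_MonsterType
import Cfsg.Agent.S5422
import Cfsg.Agent.Lib.PGroup.LargeFz

/-!
# A large extraspecial subgroup from explicit facts

An involution `z`, a normal 2-subgroup `Q` of its centralizer with a complement `K`: the facts on elements that give that
`Q` is the largest normal 2-subgroup of the centralizer, and that it is a large extraspecial subgroup.
-/

set_option autoImplicit false

namespace Cfsg.Agent.Lib.Compute.Oct

open Subgroup
open scoped commutatorElement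

section

variable {G : Type*} [Group G] [Finite G]

/-- The facts. -/
structure Dat (L : Type*) [Group L] (z : G) (Q K E : Subgroup G) : Prop where
  hzQ : z ∈ Q
  hz1 : z ≠ 1
  hQC : ∀ q ∈ Q, q * z = z * q
  hKC : ∀ k ∈ K, k * z = z * k
  hnorm : ∀ c : G, c * z = z * c → ∀ q ∈ Q, c * q * c⁻¹ ∈ Q
  cardQ : Nat.card Q = 2 ^ 7
  cardC : Nat.card Q * Nat.card K = Nat.card (centralizer ({z} : Set G))
  hdisj : ∀ x ∈ Q, x ∈ K → x = 1
  hw : ∀ k ∈ K, k ≠ 1 → ∃ u ∈ K, (k * (u * k * u⁻¹)) ^ 21 = 1 ∧ k * (u * k * u⁻¹) ≠ 1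
  hext : Cfsg.IsExtraspecial 2 Q
  hcenK : ∀ k ∈ K, k ≠ 1 → ∃ q ∈ Q, k * q ≠ q * k ∧ k * q ≠ q * z * k
  hE : E ≤ Q
  hE2 : Cfsg.IsElementaryAbelian 2 E
  hEc : Nat.card E = 2 ^ 4
  hconj : ∃ g : G, g * z * g⁻¹ ∈ Q ∧ g * z * g⁻¹ ≠ z
  hiso : Nonempty (K ≃* L)

variable {L : Type*} [Group L] {z : G} {Q K E : Subgroup G}

theorem mem_C {c z : G} : c ∈ centralizer ({z} : Set G) ↔ c * z = z * c := by
  rw [mem_centralizer_singleton_iff]

namespace Dat

theorem Q_le (D : Dat L z Q K E) : Q ≤ centralizer ({z} : Set G) := fun q hq => mem_C.2 (D.hQC q hq)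

theorem K_le (D : Dat L z Q K E) : K ≤ centralizer ({z} : Set G) := fun k hk => mem_C.2 (D.hKC k hk)

/-- Every element of the centralizer is a product. -/
theorem decomp (D : Dat L z Q K E) {c : G} (hc : c ∈ centralizer ({z} : Set G)) : ∃ q ∈ Q, ∃ k ∈ K, c = q * k := by
  let f : ↥Q × ↥K → ↥(centralizer ({z} : Set G)) := fun p => ⟨p.1.1 * p.2.1,
    Subgroup.mul_mem _ (D.Q_le p.1.2) (D.K_le p.2.2)⟩
  have hf : Function.Injective f := by
    rintro ⟨⟨a, ha⟩, ⟨b, hb⟩⟩ ⟨⟨a', ha'⟩, ⟨b', hb'⟩⟩ h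
    have h1 : a * b = a' * b' := congrArg Subtype.val h
    have h2 : a'⁻¹ * a = b' * b⁻¹ := by
      calc a'⁻¹ * a = a'⁻¹ * (a * b) * b⁻¹ := by group
        _ = a'⁻¹ * (a' * b') * b⁻¹ := by rw [h1]
        _ = b' * b⁻¹ := by group
    have h3 : a'⁻¹ * a = 1 := D.hdisj _ (Q.mul_mem (Q.inv_mem ha') ha) (by rw [h2]; exact K.mul_mem hb' (K.inv_mem hb))
    have h4 : a = a' := by
      rw [inv_mul_eq_one] at h3
      exact h3.symm
    subst h4
    have h5 : b = b' := mul_left_cancel h1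
    subst h5
    rfl
  have hb := hf.bijective_of_nat_card_le (by rw [Nat.card_prod, D.cardC])
  obtain ⟨⟨⟨q, hq⟩, ⟨k, hk⟩⟩, h⟩ := hb.2 ⟨c, hc⟩
  exact ⟨q, hq, k, hk, (congrArg Subtype.val h).symm⟩

theorem inf_eq (D : Dat L z Q K E) : Q ⊓ K = ⊥ := by
  rw [eq_bot_iff]
  rintro x ⟨h1, h2⟩
  exact D.hdisj x h1 h2

theorem sup_eq (D : Dat L z Q K E) : Q ⊔ K = centralizer ({z} : Set G) := by
  apply le_antisymm (sup_le D.Q_le D.K_le)
  intro c hc
  obtain ⟨q, hq, k, hk, rfl⟩ := D.decomp hc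
  exact Subgroup.mul_mem _ (mem_sup_left hq) (mem_sup_right hk)

theorem isP (D : Dat L z Q K E) : IsPGroup 2 Q := IsPGroup.of_card D.cardQ

/-- The subgroup in the centralizer is normal. -/
theorem normal' (D : Dat L z Q K E) : (Q.subgroupOf (centralizer ({z} : Set G))).Normal := by
  refine ⟨fun n hn g => ?_⟩
  rw [mem_subgroupOf] at hn ⊢
  exact D.hnorm g.1 (mem_C.1 g.2) _ hn

theorem isP' (D : Dat L z Q K E) : IsPGroup 2 (Q.subgroupOf (centralizer ({z} : Set G))) := by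
  refine IsPGroup.of_card (n := 7) ?_
  rw [← D.cardQ]
  exact Nat.card_congr (subgroupOfEquivOfLe D.Q_le).toEquiv

/-- The largest normal 2-subgroup of the centralizer. -/
theorem pCore_eq (D : Dat L z Q K E) :
    Cfsg.pCore 2 ↥(centralizer ({z} : Set G)) = Q.subgroupOf (centralizer ({z} : Set G)) := by
  apply le_antisymm
  · refine sSup_le ?_
    rintro N ⟨hN, hN2⟩ n hn
    have : Fact (Nat.Prime 2) := ⟨Nat.prime_two⟩
    obtain ⟨q, hq, k, hk, hnk⟩ := D.decomp n.2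
    have hnorm := D.normal'
    have hisP := D.isP'
    set Q' := Q.subgroupOf (centralizer ({z} : Set G)) with hQ'
    have hR : IsPGroup 2 ↥(N ⊔ Q') := IsPGroup.to_sup_of_normal_right hN2 hisP
    have hRn : (N ⊔ Q').Normal := Subgroup.sup_normal N Q'
    let q' : ↥(centralizer ({z} : Set G)) := ⟨q, D.Q_le hq⟩
    let k' : ↥(centralizer ({z} : Set G)) := ⟨k, D.K_le hk⟩
    have hq' : q' ∈ Q' := by
      rw [hQ', mem_subgroupOf]
      exact hq
    have hnk' : n = q' * k' := Subtype.ext hnk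
    have hk'R : k' ∈ N ⊔ Q' := by
      have : k' = q'⁻¹ * n := by rw [hnk']; group
      rw [this]
      exact Subgroup.mul_mem _ (mem_sup_right (Q'.inv_mem hq')) (mem_sup_left hn)
    by_cases hk1 : k = 1
    · have : n = q' := by
        rw [hnk']
        have : k' = 1 := Subtype.ext hk1
        rw [this, mul_one]
      rw [this]
      exact hq'
    · exfalso
      obtain ⟨u, hu, hw1, hw2⟩ := D.hw k hk hk1
      let u' : ↥(centralizer ({z} : Set G)) := ⟨u, D.K_le hu⟩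
      have hw : k' * (u' * k' * u'⁻¹) ∈ N ⊔ Q' := Subgroup.mul_mem _ hk'R (hRn.conj_mem _ hk'R _)
      obtain ⟨s, hs⟩ := hR ⟨_, hw⟩
      have hs' : (k' * (u' * k' * u'⁻¹)) ^ 2 ^ s = 1 := congrArg Subtype.val hs
      have hw1' : (k' * (u' * k' * u'⁻¹)) ^ 21 = 1 := Subtype.ext hw1
      have ho1 := orderOf_dvd_of_pow_eq_one hs'
      have ho2 := orderOf_dvd_of_pow_eq_one hw1'
      have hcop : Nat.Coprime (2 ^ s) 21 := Nat.Coprime.pow_left s (by norm_num)
      have ho := Nat.eq_one_of_dvd_coprimes hcop ho1 ho2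
      rw [orderOf_eq_one_iff] at ho
      exact hw2 (congrArg Subtype.val ho)
  · exact le_sSup ⟨D.normal', D.isP'⟩

theorem map_pCore (D : Dat L z Q K E) :
    (Cfsg.pCore 2 ↥(centralizer ({z} : Set G))).map (centralizer ({z} : Set G)).subtype = Q := by
  rw [D.pCore_eq]
  exact map_subgroupOf_eq_of_le D.Q_le

/-- The element `z` in `Q`. -/
def zQ (D : Dat L z Q K E) : ↥Q := ⟨z, D.hzQ⟩

theorem zQ_center (D : Dat L z Q K E) : D.zQ ∈ center ↥Q := by
  rw [Subgroup.mem_center_iff]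
  rintro ⟨q, hq⟩
  exact Subtype.ext (D.hQC q hq)

theorem zQ_ne (D : Dat L z Q K E) : D.zQ ≠ 1 := fun h => D.hz1 (congrArg Subtype.val h)

theorem center_iff (D : Dat L z Q K E) (x : ↥Q) : x ∈ center ↥Q ↔ x = 1 ∨ x = D.zQ := by
  classical
  constructor
  · intro hx
    have hc := D.hext.2
    rw [Nat.card_eq_two_iff] at hc
    obtain ⟨a, b, hab, huniv⟩ := hc
    have hmem : ∀ y : ↥(center ↥Q), y = a ∨ y = b := by
      intro y
      have : y ∈ ({a, b} : Set ↥(center ↥Q)) := by rw [huniv]; trivial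
      simpa using this
    have h1 := hmem 1
    have h2 := hmem ⟨D.zQ, D.zQ_center⟩
    have h3 := hmem ⟨x, hx⟩
    have hne : (1 : ↥(center ↥Q)) ≠ ⟨D.zQ, D.zQ_center⟩ := fun h => D.zQ_ne (congrArg Subtype.val h).symm
    rcases h3 with h3 | h3 <;> rcases h1 with h1 | h1 <;> rcases h2 with h2 | h2
    · exact absurd (h1.trans h2.symm) hne
    · left; exact congrArg Subtype.val (h3.trans h1.symm)
    · right; exact congrArg Subtype.val (h3.trans h2.symm)
    · exact absurd (h1.trans h2.symm) hne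
    · exact absurd (h1.trans h2.symm) hne
    · right; exact congrArg Subtype.val (h3.trans h2.symm)
    · left; exact congrArg Subtype.val (h3.trans h1.symm)
    · exact absurd (h1.trans h2.symm) hne
  · rintro (rfl | rfl)
    · exact Subgroup.one_mem _
    · exact D.zQ_center

theorem comm_iff (D : Dat L z Q K E) (a b : ↥Q) : ⁅a, b⁆ = 1 ∨ ⁅a, b⁆ = D.zQ := by
  have h1 : ⁅a, b⁆ ∈ commutator ↥Q := Subgroup.commutator_mem_commutator (mem_top a) (mem_top b)
  rw [D.hext.1.2.2] at h1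
  exact (D.center_iff _).1 h1

/-- The image of the centre of `Q`. -/
theorem mem_Z (D : Dat L z Q K E) (x : G) : x ∈ (center ↥Q).map Q.subtype ↔ x = 1 ∨ x = z := by
  constructor
  · rintro ⟨y, hy, rfl⟩
    rcases (D.center_iff y).1 hy with rfl | rfl
    · left; rfl
    · right; rfl
  · rintro (rfl | rfl)
    · exact Subgroup.one_mem _
    · exact ⟨D.zQ, D.zQ_center, rfl⟩

/-- Elements centralizing `Q`. -/
theorem cen (D : Dat L z Q K E) {x : G} (hx : ∀ q ∈ Q, x * q = q * x) : x = 1 ∨ x = z := by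
  have hxc : x ∈ centralizer ({z} : Set G) := mem_C.2 (hx z D.hzQ)
  obtain ⟨q₁, hq₁, k, hk, rfl⟩ := D.decomp hxc
  have hk1 : k = 1 := by
    by_contra hne
    obtain ⟨q, hq, h1, h2⟩ := D.hcenK k hk hne
    have h3 := hx q hq
    -- the commutator of `q₁` and `q`
    have h4 := D.comm_iff ⟨q₁, hq₁⟩⁻¹ ⟨q, hq⟩
    rcases h4 with h4 | h4
    · apply h1
      have h5 : q₁⁻¹ * q * q₁⁻¹⁻¹ * q⁻¹ = 1 := congrArg Subtype.val h4
      have h6 : q₁⁻¹ * q * q₁ = q := by
        rw [inv_inv] at h5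
        exact mul_inv_eq_one.1 h5
      calc k * q = q₁⁻¹ * (q₁ * k * q) := by group
        _ = q₁⁻¹ * (q * (q₁ * k)) := by rw [h3]
        _ = (q₁⁻¹ * q * q₁) * k := by group
        _ = q * k := by rw [h6]
    · apply h2
      have h5 : q₁⁻¹ * q * q₁⁻¹⁻¹ * q⁻¹ = z := congrArg Subtype.val h4
      have h6 : q₁⁻¹ * q * q₁ = z * q := by
        rw [inv_inv] at h5
        exact mul_inv_eq_iff_eq_mul.1 h5
      calc k * q = q₁⁻¹ * (q₁ * k * q) := by group
        _ = q₁⁻¹ * (q * (q₁ * k)) := by rw [h3]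
        _ = (q₁⁻¹ * q * q₁) * k := by group
        _ = z * q * k := by rw [h6]
        _ = q * z * k := by rw [D.hQC q hq]
  subst hk1
  rw [mul_one] at hx ⊢
  have : (⟨q₁, hq₁⟩ : ↥Q) ∈ center ↥Q := by
    rw [Subgroup.mem_center_iff]
    rintro ⟨q, hq⟩
    exact Subtype.ext (hx q hq).symm
  rcases (D.center_iff _).1 this with h | h
  · left; exact congrArg Subtype.val h
  · right; exact congrArg Subtype.val h

/-- `Q` is large. -/
theorem large (D : Dat L z Q K E) : Cfsg.IsLargeExtraspecial Q := by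
  have hL2 : centralizer (Q : Set G) = (center ↥Q).map Q.subtype := by
    ext x
    rw [D.mem_Z, mem_centralizer_iff]
    constructor
    · intro h
      exact D.cen fun q hq => (h q hq).symm
    · rintro (rfl | rfl) q hq
      · simp
      · exact D.hQC q hq
  have hL3 : centralizer ((((center ↥Q).map Q.subtype : Subgroup G)) : Set G) ≤ normalizer (Q : Set G) := by
    intro c hc
    have hcz : c * z = z * c := ((mem_centralizer_iff.1 hc) z ((D.mem_Z z).2 (Or.inr rfl))).symm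
    have hcz' : c⁻¹ * z = z * c⁻¹ := by
      calc c⁻¹ * z = c⁻¹ * (z * c) * c⁻¹ := by group
        _ = c⁻¹ * (c * z) * c⁻¹ := by rw [hcz]
        _ = z * c⁻¹ := by group
    rw [mem_normalizer_iff]
    intro h
    constructor
    · exact D.hnorm c hcz h
    · intro hh
      have := D.hnorm c⁻¹ hcz' _ hh
      have e : c⁻¹ * (c * h * c⁻¹) * c⁻¹⁻¹ = h := by group
      rwa [e] at this
  obtain ⟨g, hg1, hg2⟩ := D.hconj
  refine (Cfsg.Agent.S5422.result Q D.hext hL2 hL3 3 (by norm_num) (by rw [D.cardQ]) g ?_ ?_).2.2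
  · intro hg
    have h1 := (mem_normalizer_iff.1 hg z).1 ((D.mem_Z z).2 (Or.inr rfl))
    rcases (D.mem_Z _).1 h1 with h2 | h2
    · apply D.hz1
      have : z = g⁻¹ * (g * z * g⁻¹) * g := by group
      rw [this, h2]
      group
    · exact hg2 h2
  · rintro _ ⟨x, hx, rfl⟩
    rcases (D.mem_Z x).1 hx with rfl | rfl
    · simp
    · exact hg1

/-- The conclusion for `z`, in the form of the statement. -/
theorem main (D : Dat L z Q K E) : Cfsg.IsExtraspecial 2 ↥Q ∧ Nat.card ↥Q = 2 ^ 7 ∧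
    (∃ E' : Subgroup G, E' ≤ Q ∧ Cfsg.IsElementaryAbelian 2 E' ∧ Nat.card ↥E' = 2 ^ 4) ∧
    Cfsg.IsLargeExtraspecial Q ∧ ∃ K' : Subgroup G, K' ≤ centralizer ({z} : Set G) ∧ Q ⊓ K' = ⊥ ∧
      Q ⊔ K' = centralizer ({z} : Set G) ∧ Nonempty (↥K' ≃* L) :=
  ⟨D.hext, D.cardQ, ⟨E, D.hE, D.hE2, D.hEc⟩, D.large, K, D.K_le, D.inf_eq, D.sup_eq, D.hiso⟩

/-- The facts pass along an automorphism. -/
theorem map (D : Dat L z Q K E) (φ : G ≃* G) :
    Dat L (φ z) (Q.map (φ : G →* G)) (K.map (φ : G →* G)) (E.map (φ : G →* G)) where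
  hzQ := ⟨z, D.hzQ, rfl⟩
  hz1 := fun h => D.hz1 (φ.injective (by rw [h, map_one]))
  hQC := by
    rintro _ ⟨q, hq, rfl⟩
    show φ q * φ z = φ z * φ q
    rw [← map_mul, ← map_mul, D.hQC q hq]
  hKC := by
    rintro _ ⟨k, hk, rfl⟩
    show φ k * φ z = φ z * φ k
    rw [← map_mul, ← map_mul, D.hKC k hk]
  hnorm := by
    rintro c hc _ ⟨q, hq, rfl⟩
    have hc' : φ.symm c * z = z * φ.symm c := by
      apply φ.injective
      rw [map_mul, map_mul, φ.apply_symm_apply, hc]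
    refine ⟨_, D.hnorm _ hc' q hq, ?_⟩
    show φ (φ.symm c * q * (φ.symm c)⁻¹) = c * φ q * c⁻¹
    rw [map_mul, map_mul, map_inv, φ.apply_symm_apply]
  cardQ := (Nat.card_congr (φ.subgroupMap Q).toEquiv).symm.trans D.cardQ
  cardC := by
    have h1 : Nat.card ↥(Q.map (φ : G →* G)) = Nat.card Q := (Nat.card_congr (φ.subgroupMap Q).toEquiv).symm
    have h2 : Nat.card ↥(K.map (φ : G →* G)) = Nat.card K := (Nat.card_congr (φ.subgroupMap K).toEquiv).symm
    rw [h1, h2, D.cardC]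
    refine Nat.card_congr (Equiv.subtypeEquiv φ.toEquiv fun a => ?_)
    rw [mem_C, mem_C]
    show _ ↔ φ a * φ z = φ z * φ a
    rw [← map_mul, ← map_mul]
    exact φ.injective.eq_iff.symm
  hdisj := by
    rintro _ ⟨x, hx, rfl⟩ ⟨y, hy, hxy⟩
    have h1 : y = x := φ.injective hxy
    subst h1
    show φ y = 1
    rw [D.hdisj y hx hy, map_one]
  hw := by
    rintro _ ⟨k, hk, rfl⟩ hk1
    have hk1' : k ≠ 1 := fun h => hk1 (by rw [h]; exact map_one _)
    obtain ⟨u, hu, h1, h2⟩ := D.hw k hk hk1'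
    refine ⟨φ u, ⟨u, hu, rfl⟩, ?_, ?_⟩
    · show (φ k * (φ u * φ k * (φ u)⁻¹)) ^ 21 = 1
      rw [← map_inv, ← map_mul, ← map_mul, ← map_mul, ← map_pow, h1, map_one]
    · intro h
      apply h2
      apply φ.injective
      rw [map_one]
      show φ _ = 1
      have h3 : φ k * (φ u * φ k * (φ u)⁻¹) = 1 := h
      rw [← map_inv, ← map_mul, ← map_mul, ← map_mul] at h3
      exact h3
  hext := Cfsg.Agent.Lib.PGroup.LargeFz.isExtraspecial_of_equiv (φ.subgroupMap Q) D.hext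
  hcenK := by
    rintro _ ⟨k, hk, rfl⟩ hk1
    have hk1' : k ≠ 1 := fun h => hk1 (by rw [h]; exact map_one _)
    obtain ⟨q, hq, h1, h2⟩ := D.hcenK k hk hk1'
    refine ⟨φ q, ⟨q, hq, rfl⟩, ?_, ?_⟩
    · intro h
      apply h1
      apply φ.injective
      rw [map_mul, map_mul]
      exact h
    · intro h
      apply h2
      apply φ.injective
      rw [map_mul, map_mul, map_mul]
      exact h
  hE := map_mono D.hE
  hE2 := by
    refine ⟨?_, ?_⟩
    · refine ⟨⟨?_⟩⟩
      rintro ⟨_, a, ha, rfl⟩ ⟨_, b, hb, rfl⟩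
      apply Subtype.ext
      show φ a * φ b = φ b * φ a
      rw [← map_mul, ← map_mul]
      exact congrArg φ (congrArg Subtype.val (D.hE2.1.is_comm.comm ⟨a, ha⟩ ⟨b, hb⟩))
    · rintro _ ⟨a, ha, rfl⟩
      show (φ a) ^ 2 = 1
      rw [← map_pow, D.hE2.2 a ha, map_one]
  hEc := (Nat.card_congr (φ.subgroupMap E).toEquiv).symm.trans D.hEc
  hconj := by
    obtain ⟨g, h1, h2⟩ := D.hconj
    refine ⟨φ g, ⟨_, h1, ?_⟩, ?_⟩
    · show φ (g * z * g⁻¹) = _
      rw [map_mul, map_mul, map_inv]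
    · intro h
      apply h2
      apply φ.injective
      rw [map_mul, map_mul, map_inv]
      exact h
  hiso := by
    obtain ⟨e⟩ := D.hiso
    exact ⟨(φ.subgroupMap K).symm.trans e⟩

end Dat

end

end Cfsg.Agent.Lib.Compute.Oct
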