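import Cfsg.Agent.Lib.Compute.M24CenT8
import Cfsg.Agent.Lib.Compute.Oct.Data

/-!
# The checks on the data for the centralizer of an involution of `M24` with an octad of fixed points
-/

set_option autoImplicit false
set_option maxRecDepth 100000
set_option Elab.async false

namespace Cfsg.Agent.Lib.Compute.Oct

open Cfsg Cfsg.Agent.Lib.Compute.M24 Cfsg.Agent.Lib.Compute.Golay Cfsg.Agent.Lib.Compute.GolayFast
open Cfsg.Agent.Lib.Compute.SB PTree

abbrev SL3 : Type := Matrix.SpecialLinearGroup (Fin 3) (ZMod 2)

theorem card_SL3 : Fintype.card SL3 = 168 := by decide +kernel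

def gA : SL3 := ⟨Matrix.of mGA, by decide +kernel⟩
def gB : SL3 := ⟨Matrix.of mGB, by decide +kernel⟩

/-- The value of a word. -/
def wordVal : List Bool → SL3
  | [] => 1
  | x :: l => wordVal l * (if x then gB else gA)

theorem words_all : ∀ g : SL3, ∃ w ∈ wordsSL, wordVal w = g := by decide +kernel

/-- The matrix of a code. -/
def mOf (c : ℕ) : Matrix (Fin 3) (Fin 3) (ZMod 2) :=
  Matrix.of fun i j => if c.testBit (3 * i.val + j.val) then 1 else 0

theorem zP_eq : packL t8L = zP := by decide +kernel

theorem QT_mem : allK memF QT = true := by decide +kernel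
theorem QT_bdd : QT.bdd 0 (2 ^ 120) = true := by decide +kernel
theorem QT_len : QT.toList.length = 128 := by decide +kernel
theorem QT_one : find idP QT = true := by decide +kernel
theorem QT_z : find zP QT = true := by decide +kernel
theorem QT_mul : allK (fun a => allK (fun b => find (mulF a b) QT) QT) QT = true := by decide +kernel
theorem QT_zc : allK (fun n => Nat.beq (mulF n zP) (mulF zP n)) QT = true := by decide +kernel
theorem gQ_mem : gQ.all (fun g => find g QT) = true := by decide +kernel
theorem QT_cen : allK (fun n => Nat.beq n idP || Nat.beq n zP || gQ.any (fun g => !Nat.beq (mulF n g) (mulF g n))) QT = true := by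
  decide +kernel
theorem QT_pairs : allK (fun a => allK (fun b => Nat.beq (mulF a b) (mulF b a) || Nat.beq (mulF a b) (mulF zP (mulF b a))) QT) QT = true := by
  decide +kernel
theorem QT_sq : allK (fun a => Nat.beq (mulF a a) idP || Nat.beq (mulF a a) zP) QT = true := by decide +kernel
theorem wit_ok : find a0P QT = true ∧ find b0P QT = true ∧ mulF a0P b0P = mulF zP (mulF b0P a0P) := by decide +kernel

theorem ET_mem : allK memF ET = true := by decide +kernel
theorem ET_bdd : ET.bdd 0 (2 ^ 120) = true := by decide +kernel
theorem ET_len : ET.toList.length = 16 := by decide +kernel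
theorem ET_one : find idP ET = true := by decide +kernel
theorem ET_mul : allK (fun a => allK (fun b => find (mulF a b) ET) ET) ET = true := by decide +kernel
theorem ET_le : allK (fun a => find a QT) ET = true := by decide +kernel
theorem ET_comm : allK (fun a => allK (fun b => Nat.beq (mulF a b) (mulF b a)) ET) ET = true := by decide +kernel
theorem ET_sq : allK (fun a => Nat.beq (mulF a a) idP) ET = true := by decide +kernel

theorem conj_ok : memF gP = true ∧ memF giP = true ∧ mulF gP giP = idP ∧ mulF (mulF gP zP) giP = yP ∧ find yP QT = true ∧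
    ¬ yP = zP := by decide +kernel

/-- The step of the closure. -/
def stepOK (a : ℕ) (A : Matrix (Fin 3) (Fin 3) (ZMod 2)) : Bool :=
  TE.all (fun e => TE.any (fun e' => Nat.beq e'.1 (mulF e.1 a) && decide (mOf e'.2.1 = mOf e.2.1 * A)))

theorem stepA : stepOK kaP (Matrix.of mGA) = true := by decide +kernel
theorem stepB : stepOK kbP (Matrix.of mGB) = true := by decide +kernel
theorem TE_one : TE.any (fun e => Nat.beq e.1 idP && decide (mOf e.2.1 = 1)) = true := by decide +kernel
theorem ka_mem : memF kaP = true ∧ memF kbP = true := by decide +kernel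

/-- An increasing list. -/
def incr : ℕ → List ℕ → Bool
  | _, [] => true
  | a, b :: l => Nat.blt a b && incr b l

theorem incr_spec : ∀ (l : List ℕ) (a : ℕ), incr a l = true → (∀ x ∈ l, a < x) ∧ l.Nodup
  | [], _, _ => by simp
  | b :: l, a, h => by
    simp only [incr, Bool.and_eq_true, Nat.blt_eq] at h
    obtain ⟨h1, h2⟩ := incr_spec l b h.2
    refine ⟨?_, ?_⟩
    · intro x hx
      rcases List.mem_cons.1 hx with rfl | hx
      · exact h.1
      · exact lt_trans h.1 (h1 x hx)
    · exact List.nodup_cons.2 ⟨fun hb => lt_irrefl b (h1 b hb), h2⟩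

theorem TE_incr : incr 0 (TE.map (fun e => e.1)) = true := by decide +kernel
theorem TE_len : TE.length = 168 := by decide +kernel
theorem TE_mem : TE.all (fun e => memF e.1) = true := by decide +kernel
theorem TE_z : TE.all (fun e => Nat.beq (mulF e.1 zP) (mulF zP e.1)) = true := by decide +kernel
theorem TE_disj : TE.all (fun e => Nat.beq e.1 idP || !find e.1 QT) = true := by decide +kernel

/-- The powers of a packed element. -/
def pow21 (x : ℕ) : ℕ :=
  let x2 := mulF x x
  let x4 := mulF x2 x2
  let x8 := mulF x4 x4
  let x16 := mulF x8 x8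
  mulF x16 (mulF x4 x)

theorem TE_w : TE.all (fun e => Nat.beq e.1 idP ||
    (let w := mulF e.1 (mulF (mulF e.2.2.1 e.1) e.2.2.2)
     TE.any (fun e' => Nat.beq e'.1 e.2.2.1) && Nat.beq (mulF e.2.2.1 e.2.2.2) idP &&
      Nat.beq (pow21 w) idP && !Nat.beq w idP)) = true := by decide +kernel

theorem TE_cen : TE.all (fun e => Nat.beq e.1 idP || gQ.any (fun q =>
    !Nat.beq (mulF e.1 q) (mulF q e.1) && !Nat.beq (mulF e.1 q) (mulF (mulF q zP) e.1))) = true := by decide +kernel

theorem Gs_all : lvlC8.all (fun lv => lv.T.all (fun L => validL L && Gs.any (fun p => Nat.beq p.1 (packL L)))) = true := by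
  decide +kernel

theorem Gs_ok : Gs.all (fun p => memF p.2 && Nat.beq (mulF p.1 p.2) idP &&
    allK (fun q => find (mulF (mulF p.1 q) p.2) QT) QT) = true := by decide +kernel

end Cfsg.Agent.Lib.Compute.Oct
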