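import Cfsg.Agent.Lib.Compute.Oct.Checks
import Cfsg.Agent.Lib.Compute.Oct.Abstract
import Cfsg.Agent.Lib.PGroup.ExtraMk

/-!
# The centralizer of an involution of `M24` with an octad of fixed points: the explicit subgroups
-/

set_option autoImplicit false
set_option maxRecDepth 100000

namespace Cfsg.Agent.Lib.Compute.Oct

open Cfsg Cfsg.Agent.Lib.Compute.M24 Cfsg.Agent.Lib.Compute.Golay Cfsg.Agent.Lib.Compute.GolayFast
open Cfsg.Agent.Lib.Compute.SB PTree Subgroup
open scoped commutatorElement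

/-- The packed form on `M24`. -/
noncomputable def pm (x : ↥Cfsg.M24) : ℕ := pk (x : P)

theorem pm_mul (x y : ↥Cfsg.M24) : pm (x * y) = mulF (pm x) (pm y) := pk_mul _ _
theorem pm_one : pm 1 = idP := pk_one
theorem pm_inj {x y : ↥Cfsg.M24} (h : pm x = pm y) : x = y := Subtype.ext (pk_inj h)

theorem exists_pm {n : ℕ} (h : memF n = true) : ∃ x : ↥Cfsg.M24, pm x = n := by
  obtain ⟨σ, hσ, rfl⟩ := exists_of_memF h
  exact ⟨⟨σ, hσ⟩, rfl⟩

/-- The central involution. -/
noncomputable def z0 : ↥Cfsg.M24 := ⟨t8P, t8P_mem⟩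

theorem pm_z0 : pm z0 = zP := by
  rw [← zP_eq, ← t8P_toL]
  rfl

theorem pm_def (x : ↥Cfsg.M24) : pm x = pk (x : P) := rfl

attribute [irreducible] pm

/-- The subgroup of a tree. -/
noncomputable def subT (T : PTree) (h1 : find idP T = true)
    (hm : allK (fun a => allK (fun b => find (mulF a b) T) T) T = true) : Subgroup ↥Cfsg.M24 where
  carrier := {x | pm x ∈ T.toList}
  one_mem' := by
    show pm 1 ∈ T.toList
    rw [pm_one]
    exact mem_of_find h1
  mul_mem' := by
    intro a b ha hb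
    show pm (a * b) ∈ T.toList
    rw [pm_mul]
    exact mem_of_find (allK_iff.1 (allK_iff.1 hm _ ha) _ hb)
  inv_mem' := by
    intro a ha
    have hpow : ∀ k : ℕ, pm (a ^ k) ∈ T.toList := by
      intro k
      induction k with
      | zero =>
        rw [pow_zero, pm_one]
        exact mem_of_find h1
      | succ k ih =>
        rw [pow_succ, pm_mul]
        exact mem_of_find (allK_iff.1 (allK_iff.1 hm _ ih) _ ha)
    have h2 : a⁻¹ = a ^ (orderOf a - 1) := by
      rw [inv_eq_iff_mul_eq_one, ← pow_succ', Nat.sub_add_cancel (orderOf_pos a), pow_orderOf_eq_one]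
    show pm a⁻¹ ∈ T.toList
    rw [h2]
    exact hpow _

theorem card_mem_list (L : List ℕ) (h : L.Nodup) : Nat.card {n // n ∈ L} = L.length := by
  rw [Nat.card_eq_fintype_card, Fintype.card_of_subtype L.toFinset (by simp), List.toFinset_card_of_nodup h]

theorem card_subT {T : PTree} {h1 : find idP T = true}
    {hm : allK (fun a => allK (fun b => find (mulF a b) T) T) T = true}
    (hmem : allK memF T = true) (hb : T.bdd 0 (2 ^ 120) = true) :
    Nat.card (subT T h1 hm) = T.toList.length := by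
  let f : ↥(subT T h1 hm) → {n // n ∈ T.toList} := fun x => ⟨pm x.1, x.2⟩
  have hinj : Function.Injective f := by
    intro a b h
    have h' : pm a.1 = pm b.1 := congrArg Subtype.val h
    exact Subtype.ext (pm_inj h')
  have hsurj : Function.Surjective f := by
    rintro ⟨n, hn⟩
    obtain ⟨x, rfl⟩ := exists_pm (allK_iff.1 hmem n hn)
    exact ⟨⟨x, hn⟩, rfl⟩
  rw [Nat.card_congr (Equiv.ofBijective f ⟨hinj, hsurj⟩), card_mem_list _ (bdd_spec hb).1]

/-- The extraspecial subgroup. -/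
noncomputable def Q0 : Subgroup ↥Cfsg.M24 := subT QT QT_one QT_mul

/-- The elementary abelian subgroup. -/
noncomputable def E0 : Subgroup ↥Cfsg.M24 := subT ET ET_one ET_mul

theorem mem_Q0 {x : ↥Cfsg.M24} : x ∈ Q0 ↔ pm x ∈ QT.toList := Iff.rfl
theorem mem_E0 {x : ↥Cfsg.M24} : x ∈ E0 ↔ pm x ∈ ET.toList := Iff.rfl

theorem z0_mem : z0 ∈ Q0 := by
  rw [mem_Q0, pm_z0]
  exact mem_of_find QT_z

theorem z0_ne : z0 ≠ 1 := by
  intro h
  have h1 := pm_z0
  rw [h, pm_one] at h1
  exact absurd h1 (by decide +kernel)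

theorem card_Q0 : Nat.card Q0 = 128 := by
  rw [Q0, card_subT QT_mem QT_bdd, QT_len]

theorem card_E0 : Nat.card E0 = 16 := by
  rw [E0, card_subT ET_mem ET_bdd, ET_len]

/-- The element of the subgroup of a number of the tree. -/
theorem exists_Q0 {n : ℕ} (hn : n ∈ QT.toList) : ∃ x ∈ Q0, pm x = n := by
  obtain ⟨x, rfl⟩ := exists_pm (allK_iff.1 QT_mem n hn)
  exact ⟨x, hn, rfl⟩

theorem Q0_ext : Cfsg.IsExtraspecial 2 ↥Q0 := by
  have hq : ∀ x y : ↥Q0, ((x * y : ↥Q0) : ↥Cfsg.M24) = (x : ↥Cfsg.M24) * (y : ↥Cfsg.M24) := fun _ _ => rfl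
  let zq : ↥Q0 := ⟨z0, z0_mem⟩
  have hzcomm : ∀ y : ↥Q0, zq * y = y * zq := by
    rintro ⟨y, hy⟩
    apply Subtype.ext
    apply pm_inj
    have h1 := allK_iff.1 QT_zc _ hy
    simp only [Nat.beq_eq] at h1
    show pm (z0 * y) = pm (y * z0)
    rw [pm_mul, pm_mul, pm_z0]
    exact h1.symm
  refine Cfsg.Agent.Lib.PGroup.ExtraMk.isExtraspecial_of (IsPGroup.of_card (n := 7) (by rw [card_Q0]; norm_num)) zq
    (fun h => z0_ne (congrArg Subtype.val h)) ?_ ?_ ?_ ?_
  · intro x
    constructor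
    · intro hx
      have h1 := allK_iff.1 QT_cen _ x.2
      simp only [Bool.or_eq_true, Nat.beq_eq, List.any_eq_true] at h1
      rcases h1 with (h1 | h1) | ⟨g, hg, h1⟩
      · left
        apply Subtype.ext
        apply pm_inj
        rw [h1]
        exact pm_one.symm
      · right
        apply Subtype.ext
        apply pm_inj
        rw [h1]
        exact pm_z0.symm
      · exfalso
        obtain ⟨y, hy, rfl⟩ := exists_Q0 (mem_of_find (List.all_eq_true.1 gQ_mem g hg))
        have h2 := (Subgroup.mem_center_iff.1 hx) ⟨y, hy⟩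
        have h3 := congrArg (fun t : ↥Q0 => pm (t : ↥Cfsg.M24)) h2
        simp only [hq, pm_mul] at h3
        rw [← h3] at h1
        simp at h1
    · rintro (rfl | rfl)
      · exact Subgroup.one_mem _
      · exact Subgroup.mem_center_iff.2 (fun y => (hzcomm y).symm)
  · rintro ⟨x, hx⟩ ⟨y, hy⟩
    have h1 := allK_iff.1 (allK_iff.1 QT_pairs _ hx) _ hy
    simp only [Bool.or_eq_true, Nat.beq_eq] at h1
    rcases h1 with h1 | h1
    · left
      rw [commutatorElement_eq_one_iff_mul_comm]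
      apply Subtype.ext
      apply pm_inj
      show pm (x * y) = pm (y * x)
      rw [pm_mul, pm_mul, h1]
    · right
      have h2 : x * y = z0 * (y * x) := pm_inj (by rw [pm_mul, pm_mul, pm_mul, pm_z0]; exact h1)
      apply Subtype.ext
      show x * y * x⁻¹ * y⁻¹ = z0
      rw [h2]
      group
  · rintro ⟨x, hx⟩
    have h1 := allK_iff.1 QT_sq _ hx
    simp only [Bool.or_eq_true, Nat.beq_eq] at h1
    rcases h1 with h1 | h1
    · left
      apply Subtype.ext
      apply pm_inj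
      show pm (x ^ 2) = pm 1
      rw [pow_two, pm_mul, h1, pm_one]
    · right
      apply Subtype.ext
      apply pm_inj
      show pm (x ^ 2) = pm z0
      rw [pow_two, pm_mul, h1, pm_z0]
  · obtain ⟨x, hx, hxp⟩ := exists_Q0 (mem_of_find wit_ok.1)
    obtain ⟨y, hy, hyp⟩ := exists_Q0 (mem_of_find wit_ok.2.1)
    refine ⟨⟨x, hx⟩, ⟨y, hy⟩, ?_⟩
    have h2 : x * y = z0 * (y * x) := pm_inj (by
      rw [pm_mul, pm_mul, pm_mul, pm_z0, hxp, hyp]
      exact wit_ok.2.2)
    apply Subtype.ext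
    show x * y * x⁻¹ * y⁻¹ = z0
    rw [h2]
    group

theorem E0_elem : Cfsg.IsElementaryAbelian 2 E0 := by
  refine ⟨⟨⟨?_⟩⟩, ?_⟩
  · rintro ⟨x, hx⟩ ⟨y, hy⟩
    have h1 := allK_iff.1 (allK_iff.1 ET_comm _ hx) _ hy
    simp only [Nat.beq_eq] at h1
    apply Subtype.ext
    apply pm_inj
    show pm (x * y) = pm (y * x)
    rw [pm_mul, pm_mul, h1]
  · intro x hx
    have h1 := allK_iff.1 ET_sq _ hx
    simp only [Nat.beq_eq] at h1
    apply pm_inj
    rw [pow_two, pm_mul, h1, pm_one]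

theorem E0_le : E0 ≤ Q0 := fun x hx => mem_of_find (allK_iff.1 ET_le _ hx)

/-! ### The complement -/

/-- A subset closed under multiplications on the right by generators contains the subgroup generated. -/
theorem closure_sub_of_right {H : Type*} [Group H] [Finite H] {S : Set H} {gens : Set H} (h1 : 1 ∈ S)
    (h2 : ∀ x ∈ S, ∀ g ∈ gens, x * g ∈ S) : ∀ x ∈ Subgroup.closure gens, x ∈ S := by
  have key : ∀ x ∈ Subgroup.closure gens, ∀ s ∈ S, s * x ∈ S := by
    intro x hx
    induction hx using Subgroup.closure_induction with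
    | mem g hg => exact fun s hs => h2 s hs g hg
    | one => simpa using fun s hs => hs
    | mul a b _ _ ha hb =>
      intro s hs
      rw [← mul_assoc]
      exact hb _ (ha s hs)
    | inv a _ ha =>
      intro s hs
      have hpow : ∀ k : ℕ, s * a ^ k ∈ S := by
        intro k
        induction k with
        | zero => simpa using hs
        | succ k ih =>
          rw [pow_succ, ← mul_assoc]
          exact ha _ ih
      have h3 : a⁻¹ = a ^ (orderOf a - 1) := by
        rw [inv_eq_iff_mul_eq_one, ← pow_succ', Nat.sub_add_cancel (orderOf_pos a), pow_orderOf_eq_one]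
      rw [h3]
      exact hpow _
  intro x hx
  simpa using key x hx 1 h1

/-- The first generator of the complement. -/
noncomputable def ka : ↥Cfsg.M24 := (exists_pm ka_mem.1).choose
noncomputable def kb : ↥Cfsg.M24 := (exists_pm ka_mem.2).choose
theorem pm_ka : pm ka = kaP := (exists_pm ka_mem.1).choose_spec
theorem pm_kb : pm kb = kbP := (exists_pm ka_mem.2).choose_spec

/-- The graph of the isomorphism. -/
noncomputable def DG : Subgroup (↥Cfsg.M24 × SL3) := Subgroup.closure {(ka, gA), (kb, gB)}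

/-- The pairs of the table. -/
def SD : Set (↥Cfsg.M24 × SL3) :=
  {d | ∃ e ∈ TE, pm d.1 = e.1 ∧ (d.2 : Matrix (Fin 3) (Fin 3) (ZMod 2)) = mOf e.2.1}

theorem SD_one : (1 : ↥Cfsg.M24 × SL3) ∈ SD := by
  have h := TE_one
  simp only [List.any_eq_true, Bool.and_eq_true, Nat.beq_eq, decide_eq_true_eq] at h
  obtain ⟨e, he, h1, h2⟩ := h
  refine ⟨e, he, ?_, ?_⟩
  · rw [h1]
    exact pm_one
  · rw [h2]
    rfl

theorem SD_step {x : ↥Cfsg.M24} {m : SL3} (hs : (x, m) ∈ SD) {g : ↥Cfsg.M24} {G : SL3} {n : ℕ}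
    {A : Matrix (Fin 3) (Fin 3) (ZMod 2)} (h0 : stepOK n A = true) (hn : pm g = n)
    (hA : (G : Matrix (Fin 3) (Fin 3) (ZMod 2)) = A) : (x * g, m * G) ∈ SD := by
  obtain ⟨e, he, h1, h2⟩ := hs
  have h1' : pm x = e.1 := h1
  have h2' : (m : Matrix (Fin 3) (Fin 3) (ZMod 2)) = mOf e.2.1 := h2
  have h3 := List.all_eq_true.1 h0 e he
  simp only [List.any_eq_true, Bool.and_eq_true, Nat.beq_eq, decide_eq_true_eq] at h3
  obtain ⟨e', he', h4, h5⟩ := h3
  refine ⟨e', he', ?_, ?_⟩
  · show pm (x * g) = e'.1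
    rw [pm_mul, h1', hn, h4]
  · show ((m * G : SL3) : Matrix (Fin 3) (Fin 3) (ZMod 2)) = mOf e'.2.1
    rw [h5, ← h2', ← hA]
    exact Matrix.SpecialLinearGroup.coe_mul m G

theorem DG_sub' : ∀ d ∈ DG, d ∈ SD := by
  refine closure_sub_of_right (gens := {(ka, gA), (kb, gB)}) SD_one ?_
  rintro ⟨x, m⟩ hs ⟨g, G⟩ hg
  rcases hg with hg | hg
  · have e1 : g = ka := congrArg Prod.fst hg
    have e2 : G = gA := congrArg Prod.snd hg
    subst e1 e2
    exact SD_step hs stepA pm_ka rfl
  · have hg' : (g, G) = (kb, gB) := hg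
    have e1 : g = kb := congrArg Prod.fst hg'
    have e2 : G = gB := congrArg Prod.snd hg'
    subst e1 e2
    exact SD_step hs stepB pm_kb rfl

theorem DG_sub (d : ↥Cfsg.M24 × SL3) (hd : d ∈ DG) :
    ∃ e ∈ TE, pm d.1 = e.1 ∧ (d.2 : Matrix (Fin 3) (Fin 3) (ZMod 2)) = mOf e.2.1 := DG_sub' d hd

theorem TE_nodup : (TE.map (fun e => e.1)).Nodup := (incr_spec _ 0 TE_incr).2

theorem TE_inj {e e' : ℕ × ℕ × ℕ × ℕ} (he : e ∈ TE) (he' : e' ∈ TE) (h : e.1 = e'.1) : e = e' :=
  List.inj_on_of_nodup_map TE_nodup he he' h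

/-- The first projection. -/
noncomputable def fstD : ↥DG →* ↥Cfsg.M24 := (MonoidHom.fst _ _).comp DG.subtype

/-- The second projection. -/
noncomputable def sndD : ↥DG →* SL3 := (MonoidHom.snd _ _).comp DG.subtype

theorem fstD_inj : Function.Injective fstD := by
  rintro ⟨d, hd⟩ ⟨d', hd'⟩ h
  have h1 : d.1 = d'.1 := h
  obtain ⟨e, he, h2, h3⟩ := DG_sub d hd
  obtain ⟨e', he', h4, h5⟩ := DG_sub d' hd'
  have h6 : e = e' := TE_inj he he' (by rw [← h2, ← h4, h1])
  subst h6
  apply Subtype.ext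
  apply Prod.ext h1
  apply Subtype.ext
  rw [h3, h5]

theorem sndD_surj : Function.Surjective sndD := by
  intro g
  obtain ⟨w, -, rfl⟩ := words_all g
  induction w with
  | nil => exact ⟨1, rfl⟩
  | cons x l ih =>
    obtain ⟨d, hd⟩ := ih
    cases x
    · refine ⟨d * ⟨(ka, gA), Subgroup.subset_closure (by simp)⟩, ?_⟩
      rw [map_mul, hd]
      rfl
    · refine ⟨d * ⟨(kb, gB), Subgroup.subset_closure (by simp)⟩, ?_⟩
      rw [map_mul, hd]
      rfl

theorem card_DG_le : Nat.card ↥DG ≤ 168 := by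
  classical
  let f : ↥DG → {n // n ∈ TE.map (fun e => e.1)} := fun d =>
    ⟨pm d.1.1, by
      obtain ⟨e, he, h2, -⟩ := DG_sub d.1 d.2
      exact List.mem_map.2 ⟨e, he, h2.symm⟩⟩
  have hf : Function.Injective f := by
    intro a b h
    have h' : pm a.1.1 = pm b.1.1 := congrArg Subtype.val h
    exact fstD_inj (pm_inj h')
  have h1 := Nat.card_le_card_of_injective f hf
  have h2 : Nat.card {n // n ∈ TE.map (fun e => e.1)} = 168 := by
    rw [card_mem_list _ TE_nodup, List.length_map, TE_len]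
  omega

theorem sndD_bij : Function.Bijective sndD :=
  sndD_surj.bijective_of_nat_card_le (by
    rw [Nat.card_eq_fintype_card (α := SL3), card_SL3]
    exact card_DG_le)

/-- The complement. -/
noncomputable def K0 : Subgroup ↥Cfsg.M24 := fstD.range

/-- The isomorphism. -/
noncomputable def K0_equiv : ↥K0 ≃* SL3 :=
  (MonoidHom.ofInjective fstD_inj).symm.trans (MulEquiv.ofBijective sndD sndD_bij)

theorem card_K0 : Nat.card ↥K0 = 168 := by
  rw [Nat.card_congr K0_equiv.toEquiv, Nat.card_eq_fintype_card, card_SL3]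

theorem K0_sub {k : ↥Cfsg.M24} (hk : k ∈ K0) : ∃ e ∈ TE, pm k = e.1 := by
  obtain ⟨d, rfl⟩ := hk
  obtain ⟨e, he, h2, -⟩ := DG_sub d.1 d.2
  exact ⟨e, he, h2⟩

theorem K0_sup {e : ℕ × ℕ × ℕ × ℕ} (he : e ∈ TE) : ∃ k ∈ K0, pm k = e.1 := by
  classical
  let f : ↥K0 → {n // n ∈ TE.map (fun e => e.1)} := fun k =>
    ⟨pm k.1, by
      obtain ⟨e, he, h2⟩ := K0_sub k.2
      exact List.mem_map.2 ⟨e, he, h2.symm⟩⟩
  have hf : Function.Injective f := by
    intro a b h
    have h' : pm a.1 = pm b.1 := congrArg Subtype.val h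
    exact Subtype.ext (pm_inj h')
  have h2 : Nat.card {n // n ∈ TE.map (fun e => e.1)} = 168 := by
    rw [card_mem_list _ TE_nodup, List.length_map, TE_len]
  have hb := hf.bijective_of_nat_card_le (by rw [h2, card_K0])
  obtain ⟨k, hk⟩ := hb.2 ⟨e.1, List.mem_map.2 ⟨e, he, rfl⟩⟩
  exact ⟨k.1, k.2, congrArg Subtype.val hk⟩

end Cfsg.Agent.Lib.Compute.Oct
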