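import Cfsg.Agent.Lib.Compute.Oct.Concrete
import Cfsg.Agent.Lib.Compute.M24ClassFacts

/-!
# The centralizer of an involution of `M24` with an octad of fixed points
-/

set_option autoImplicit false
set_option maxRecDepth 100000

namespace Cfsg.Agent.Lib.Compute.Oct

open Cfsg Cfsg.Agent.Lib.Compute.M24 Cfsg.Agent.Lib.Compute.Golay Cfsg.Agent.Lib.Compute.GolayFast
open Cfsg.Agent.Lib.Compute.SB PTree Subgroup

theorem TE_w2 : TE.all (fun e => Nat.beq e.1 idP || memF e.2.2.2) = true := by decide +kernel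

theorem find_complete : ∀ {t : PTree} {lo hi x : ℕ}, t.bdd lo hi = true → x ∈ t.toList → find x t = true
  | leaf, _, _, _, _, hx => by simp [toList] at hx
  | node l k r, lo, hi, x, h, hx => by
    have h0 : ifB (Nat.blt lo k) (ifB (Nat.blt k hi) (ifB (bdd l lo k) (bdd r k hi) false) false) false = true := h
    have ifB_and : ∀ (a : Bool) (b : Bool), ifB a b false = true → a = true ∧ b = true := by
      intro a b
      cases a <;> cases b <;> simp [ifB_true, ifB_false]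
    obtain ⟨_, h0⟩ := ifB_and _ _ h0
    obtain ⟨_, h0⟩ := ifB_and _ _ h0
    obtain ⟨h3, h4⟩ := ifB_and _ _ h0
    have hf : find x (node l k r) = ifB (Nat.blt x k) (find x l) (ifB (Nat.blt k x) (find x r) true) := rfl
    rw [hf]
    simp only [toList, List.mem_append, List.mem_cons] at hx
    rcases hx with hx | rfl | hx
    · have h5 := ((bdd_spec h3).2 x hx).2
      have h6 : Nat.blt x k = true := by rw [Nat.blt_eq]; exact h5
      rw [h6, ifB_true]
      exact find_complete h3 hx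
    · have h6 : Nat.blt x x = false := by
        rw [← Bool.not_eq_true, Nat.blt_eq]; exact lt_irrefl x
      rw [h6, ifB_false, ifB_false]
    · have h5 := ((bdd_spec h4).2 x hx).1
      have h6 : Nat.blt x k = false := by
        rw [← Bool.not_eq_true, Nat.blt_eq]; omega
      have h7 : Nat.blt k x = true := by rw [Nat.blt_eq]; exact h5
      rw [h6, ifB_false, h7, ifB_true]
      exact find_complete h4 hx

theorem hQC' : ∀ q ∈ Q0, q * z0 = z0 * q := by
  intro q hq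
  have h1 := allK_iff.1 QT_zc _ hq
  simp only [Nat.beq_eq] at h1
  apply pm_inj
  rw [pm_mul, pm_mul, pm_z0]
  exact h1

theorem hKC' : ∀ k ∈ K0, k * z0 = z0 * k := by
  intro k hk
  obtain ⟨e, he, h⟩ := K0_sub hk
  have h1 := List.all_eq_true.1 TE_z e he
  simp only [Nat.beq_eq] at h1
  apply pm_inj
  rw [pm_mul, pm_mul, pm_z0, h]
  exact h1

/-- Conjugation closure. -/
theorem conj_closure_le' (S : Set P) (gens : Set P) (h : ∀ g ∈ gens, ∀ v ∈ S, g * v * g⁻¹ ∈ S) [Finite P] :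
    ∀ g ∈ Subgroup.closure gens, ∀ v ∈ S, g * v * g⁻¹ ∈ S := by
  intro g hg
  induction hg using Subgroup.closure_induction with
  | mem g hg => exact h g hg
  | one =>
    intro v hv
    simpa using hv
  | mul a b _ _ ha hb =>
    intro v hv
    have e : a * b * v * (a * b)⁻¹ = a * (b * v * b⁻¹) * a⁻¹ := by group
    rw [e]
    exact ha _ (hb v hv)
  | inv a _ ha =>
    intro v hv
    have hpow : ∀ k : ℕ, a ^ k * v * (a ^ k)⁻¹ ∈ S := by
      intro k
      induction k with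
      | zero => simpa using hv
      | succ k ih =>
        have e : a ^ (k + 1) * v * (a ^ (k + 1))⁻¹ = a * (a ^ k * v * (a ^ k)⁻¹) * a⁻¹ := by
          rw [pow_succ']
          group
        rw [e]
        exact ha _ ih
    have h3 : a⁻¹ = a ^ (orderOf a - 1) := by
      rw [inv_eq_iff_mul_eq_one, ← pow_succ', Nat.sub_add_cancel (orderOf_pos a), pow_orderOf_eq_one]
    rw [h3]
    exact hpow _

theorem pk_inv_of' {g : P} {n m : ℕ} (h1 : pk g = n) (h2 : memF m = true) (h3 : mulF n m = idP) : pk g⁻¹ = m := by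
  obtain ⟨σ, -, rfl⟩ := exists_of_memF h2
  have h4 : g * σ = 1 := by
    apply pk_inj
    rw [pk_mul, h1, h3, pk_one]
  rw [inv_eq_of_mul_eq_one_right h4]

theorem hnorm' : ∀ c : ↥Cfsg.M24, c * z0 = z0 * c → ∀ q ∈ Q0, c * q * c⁻¹ ∈ Q0 := by
  intro c hc q hq
  have h0 : (c : P) ∈ Cen t8P := mem_Cen.2 ⟨c.2, congrArg Subtype.val hc⟩
  have h1 := chain_genB ctxC8 FallC fixC8_trivial [] lvlC8 lvlC8_ok (c : P) (by rw [fixIn_nil]; exact h0)
  have hq' : pk (q : P) ∈ QT.toList := by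
    have := mem_Q0.1 hq
    rwa [pm_def] at this
  have h2 := conj_closure_le' {v | pk v ∈ QT.toList} (chainGens lvlC8) ?_ (c : P) h1 (q : P) hq'
  · rw [mem_Q0, pm_def]
    exact h2
  rintro g ⟨lv, hlv, L, hL, hcodes⟩ v hv
  have h3 := List.all_eq_true.1 (List.all_eq_true.1 Gs_all lv hlv) L hL
  simp only [Bool.and_eq_true, List.any_eq_true, Nat.beq_eq] at h3
  obtain ⟨hv', p, hp, hp1⟩ := h3
  have hLg : L = toL (g : GolayPt → GolayPt) := toL_eq_of_codes hv' hcodes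
  have hpg : pk g = p.1 := by rw [hp1, hLg]; rfl
  have h4 := List.all_eq_true.1 Gs_ok p hp
  simp only [Bool.and_eq_true, Nat.beq_eq] at h4
  obtain ⟨⟨h5, h6⟩, h7⟩ := h4
  have hinv := pk_inv_of' hpg h5 h6
  have h8 := allK_iff.1 h7 _ hv
  show pk (g * v * g⁻¹) ∈ QT.toList
  rw [pk_mul, pk_mul, hpg, hinv]
  exact mem_of_find h8

theorem card_cen : Nat.card ↥(centralizer ({z0} : Set ↥Cfsg.M24)) = 21504 := by
  rw [← card_C8]
  let f : ↥(centralizer ({z0} : Set ↥Cfsg.M24)) → ↥(Cen t8P) := fun c =>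
    ⟨((c : ↥Cfsg.M24) : P), mem_Cen.2 ⟨(c : ↥Cfsg.M24).2, congrArg Subtype.val (mem_C.1 c.2)⟩⟩
  have hinj : Function.Injective f := by
    intro a b h
    have h' : ((a : ↥Cfsg.M24) : P) = ((b : ↥Cfsg.M24) : P) := congrArg (fun t : ↥(Cen t8P) => (t : P)) h
    exact Subtype.ext (Subtype.ext h')
  have hsurj : Function.Surjective f := by
    rintro ⟨c, hc⟩
    obtain ⟨h1, h2⟩ := mem_Cen.1 hc
    refine ⟨⟨⟨c, h1⟩, mem_C.2 (Subtype.ext h2)⟩, rfl⟩
  exact Nat.card_congr (Equiv.ofBijective f ⟨hinj, hsurj⟩)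

theorem hdisj' : ∀ x ∈ Q0, x ∈ K0 → x = 1 := by
  intro x hx hk
  obtain ⟨e, he, h⟩ := K0_sub hk
  have h1 := List.all_eq_true.1 TE_disj e he
  simp only [Bool.or_eq_true, Nat.beq_eq, Bool.not_eq_true'] at h1
  rcases h1 with h1 | h1
  · apply pm_inj
    rw [h, h1, pm_one]
  · exfalso
    have hx' : pm x ∈ QT.toList := hx
    have h2 := find_complete QT_bdd hx'
    rw [h, h1] at h2
    exact absurd h2 (by decide)

theorem pow21_eq (x : ↥Cfsg.M24) : pm (x ^ 21) = pow21 (pm x) := by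
  have e : x ^ 21 = ((x * x * (x * x)) * (x * x * (x * x)) * ((x * x * (x * x)) * (x * x * (x * x)))) *
      ((x * x * (x * x)) * x) := by
    simp only [pow_succ, pow_zero, one_mul, mul_assoc]
  rw [e]
  simp only [pm_mul]
  rfl

theorem hw' : ∀ k ∈ K0, k ≠ 1 → ∃ u ∈ K0, (k * (u * k * u⁻¹)) ^ 21 = 1 ∧ k * (u * k * u⁻¹) ≠ 1 := by
  intro k hk hk1
  obtain ⟨e, he, hke⟩ := K0_sub hk
  have h1 := List.all_eq_true.1 TE_w e he
  have h1' := List.all_eq_true.1 TE_w2 e he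
  simp only [Bool.or_eq_true, Nat.beq_eq] at h1 h1'
  have hne : ¬ e.1 = idP := by
    intro h
    apply hk1
    apply pm_inj
    rw [hke, h, pm_one]
  have h2 := h1.resolve_left hne
  have h2' := h1'.resolve_left hne
  simp only [Bool.and_eq_true, List.any_eq_true, Nat.beq_eq, Bool.not_eq_true'] at h2
  obtain ⟨⟨⟨⟨e', he', h3⟩, h4⟩, h5⟩, h6⟩ := h2
  obtain ⟨u, hu, hup⟩ := K0_sup he'
  rw [h3] at hup
  obtain ⟨v, hv⟩ := exists_pm h2'
  have huv : u * v = 1 := by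
    apply pm_inj
    rw [pm_mul, hup, hv, h4, pm_one]
  have hvi : u⁻¹ = v := inv_eq_of_mul_eq_one_right huv
  have hw : pm (k * (u * k * u⁻¹)) = mulF e.1 (mulF (mulF e.2.2.1 e.1) e.2.2.2) := by
    rw [pm_mul, pm_mul, pm_mul, hvi, hup, hv, hke]
  refine ⟨u, hu, ?_, ?_⟩
  · apply pm_inj
    rw [pow21_eq, hw, pm_one]
    exact h5
  · intro h
    have h7 := hw
    rw [h, pm_one] at h7
    rw [← h7] at h6
    exact absurd h6 (by simp)

theorem hcenK' : ∀ k ∈ K0, k ≠ 1 → ∃ q ∈ Q0, k * q ≠ q * k ∧ k * q ≠ q * z0 * k := by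
  intro k hk hk1
  obtain ⟨e, he, hke⟩ := K0_sub hk
  have h1 := List.all_eq_true.1 TE_cen e he
  simp only [Bool.or_eq_true, Nat.beq_eq, List.any_eq_true, Bool.and_eq_true, Bool.not_eq_true'] at h1
  rcases h1 with h1 | ⟨q, hq, h2, h3⟩
  · exfalso
    apply hk1
    apply pm_inj
    rw [hke, h1, pm_one]
  · obtain ⟨y, hy, rfl⟩ := exists_Q0 (mem_of_find (List.all_eq_true.1 gQ_mem q hq))
    refine ⟨y, hy, ?_, ?_⟩
    · intro h
      have h4 := congrArg pm h
      rw [pm_mul, pm_mul, hke] at h4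
      rw [h4] at h2
      simp at h2
    · intro h
      have h4 := congrArg pm h
      rw [pm_mul, pm_mul, pm_mul, hke, pm_z0] at h4
      rw [h4] at h3
      simp at h3

theorem hconj' : ∃ g : ↥Cfsg.M24, g * z0 * g⁻¹ ∈ Q0 ∧ g * z0 * g⁻¹ ≠ z0 := by
  obtain ⟨h1, h2, h3, h4, h5, h6⟩ := conj_ok
  obtain ⟨g, hg⟩ := exists_pm h1
  obtain ⟨gi, hgi⟩ := exists_pm h2
  have e : g⁻¹ = gi := inv_eq_of_mul_eq_one_right (pm_inj (by rw [pm_mul, hg, hgi, h3, pm_one]))
  have hp : pm (g * z0 * g⁻¹) = yP := by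
    rw [pm_mul, pm_mul, e, hg, hgi, pm_z0, h4]
  refine ⟨g, ?_, ?_⟩
  · rw [mem_Q0, hp]
    exact mem_of_find h5
  · intro h
    rw [h, pm_z0] at hp
    exact h6 hp.symm

/-- The facts on the explicit subgroups. -/
theorem dat0 : Dat SL3 z0 Q0 K0 E0 where
  hzQ := z0_mem
  hz1 := z0_ne
  hQC := hQC'
  hKC := hKC'
  hnorm := hnorm'
  cardQ := by rw [card_Q0]; norm_num
  cardC := by rw [card_cen, card_Q0, card_K0]
  hdisj := hdisj'
  hw := hw'
  hext := Q0_ext
  hcenK := hcenK'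
  hE := E0_le
  hE2 := E0_elem
  hEc := by rw [card_E0]; norm_num
  hconj := hconj'
  hiso := ⟨K0_equiv⟩

/-- The statement. -/
theorem oct_main (z : ↥Cfsg.M24) (hz : orderOf z = 2)
    (hfix : (Finset.univ.filter fun p : Cfsg.GolayPt => (z : Equiv.Perm Cfsg.GolayPt) p = p) ∈ Cfsg.octads)
    (Q : Subgroup ↥Cfsg.M24)
    (hQ : Q = (Cfsg.pCore 2 ↥(Subgroup.centralizer ({z} : Set ↥Cfsg.M24))).map
      (Subgroup.centralizer ({z} : Set ↥Cfsg.M24)).subtype) :
    Cfsg.IsExtraspecial 2 ↥Q ∧ Nat.card ↥Q = 2 ^ 7 ∧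
      (∃ E : Subgroup ↥Cfsg.M24, E ≤ Q ∧ Cfsg.IsElementaryAbelian 2 E ∧ Nat.card ↥E = 2 ^ 4) ∧
      Cfsg.IsLargeExtraspecial Q ∧ ∃ K : Subgroup ↥Cfsg.M24, K ≤ Subgroup.centralizer ({z} : Set ↥Cfsg.M24) ∧
        Q ⊓ K = ⊥ ∧ Q ⊔ K = Subgroup.centralizer ({z} : Set ↥Cfsg.M24) ∧
        Nonempty (↥K ≃* Matrix.SpecialLinearGroup (Fin 3) (ZMod 2)) := by
  have hz' : orderOf (z : P) = 2 := by
    rw [← hz]
    exact Subgroup.orderOf_coe z
  have hcard8 : (Finset.univ.filter fun p : Cfsg.GolayPt => (z : P) p = p).card = 8 := hfix.2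
  rcases inv_class' z.2 hz' with ⟨⟨g, hg, hgz⟩, -⟩ | ⟨-, h0⟩
  · let φ : ↥Cfsg.M24 ≃* ↥Cfsg.M24 := MulAut.conj (⟨g, hg⟩ : ↥Cfsg.M24)
    have hφ : φ z0 = z := by
      apply Subtype.ext
      show g * t8P * g⁻¹ = (z : P)
      exact hgz
    have D := dat0.map φ
    rw [hφ] at D
    have hQ' : Q = Q0.map (φ : ↥Cfsg.M24 →* ↥Cfsg.M24) := by
      rw [hQ]
      exact D.map_pCore
    rw [hQ']
    exact D.main
  · rw [hcard8] at h0
    exact absurd h0 (by norm_num)

end Cfsg.Agent.Lib.Compute.Oct
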